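import Cfsg.Agent.Lib.Helper36.Stu.CDefs

set_option autoImplicit false

/-!
# STU (S2318), Chevalley side, package CP (helper1)
-/

universe u

namespace Cfsg.Agent.Lib.Helper1.Stu

open Cfsg Cfsg.Lie Cfsg.Agent.Lib.Helper36 Cfsg.Agent.Lib.Helper36.Stu

theorem pkgCP : PkgCP.{u} := by
  intro F _ D hD j
  have hS := sgnOK_all D hD
  have hHB : D.diagonalSubgroup F ≤ D.borelSubgroup F := le_sup_right
  have hNj := Cfsg.Agent.Lib.Helper36.nU_mem_normalizer (F := F) D hD j
  refine ⟨?_, ?_⟩
  · intro hB
    have e : ([j].map (Cfsg.Agent.Lib.Helper36.nU (F := F) D hD)).prod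
        = Cfsg.Agent.Lib.Helper36.nU D hD j *
          (([] : List (Fin D.rank)).map (Cfsg.Agent.Lib.Helper36.nU (F := F) D hD)).prod * 1 := by
      simp
    have h1 := bruhat_word_unique D hD [] [j] _ 1 hB (Subgroup.one_mem _) e
    have h2 : Cfsg.Agent.Lib.Helper36.nU (F := F) D hD j ∈ D.diagonalSubgroup F := by
      simpa using h1
    have h3 : (nW (F := F) D hD [j])⁻¹ * nW D hD [] ∈ D.diagonalSubgroup F := by
      have e2 : (nW (F := F) D hD [j])⁻¹ * nW D hD []
          = (Cfsg.Agent.Lib.Helper36.nU (F := F) D hD j)⁻¹ := by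
        simp [nW]
      rw [e2]; exact Subgroup.inv_mem _ h2
    have hneg : D.IsNegRoot (wordF D [j] (D.simple j)) := by
      have e2 : wordF D [j] (D.simple j) = D.neg (D.simple j) := reflect_simple D j
      rw [e2]; exact hS.neg_simple j j.isLt
    have h4 := wd_neg (F := F) D hD [j] [] h3 (D.simple j) (simple_lt D hD j j.isLt) hneg
    exact hS.not_both _ ⟨hS.pos_simple j j.isLt, h4⟩
  · intro x hx hxB
    obtain ⟨y, hy, m, hm, y', hy', rfl⟩ := par_decomp D hD _ x hx
    obtain ⟨h, hh, v, hv, rfl⟩ := jclosure_word D hD _ m hm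
    have key : ∀ v : List (Fin D.rank), (∀ a ∈ v, a.val ∈ ({(j : ℕ)} : Set ℕ)) →
        (nW (F := F) D hD v ∈ D.diagonalSubgroup F) ∨
        ∃ h' ∈ D.diagonalSubgroup F,
          nW (F := F) D hD v = h' * Cfsg.Agent.Lib.Helper36.nU D hD j := by
      intro v
      induction v with
      | nil =>
        intro _
        left
        have e2 : nW (F := F) D hD [] = 1 := by simp [nW]
        rw [e2]; exact Subgroup.one_mem _
      | cons a v ih =>
        intro hv
        have ha : a = j := Fin.ext (hv a (List.mem_cons_self ..))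
        have ih' := ih (fun b hb => hv b (List.mem_cons_of_mem _ hb))
        rw [nW_cons, ha]
        rcases ih' with h0 | ⟨h', hh', e⟩
        · right
          exact ⟨Cfsg.Agent.Lib.Helper36.nU D hD j * nW D hD v *
            (Cfsg.Agent.Lib.Helper36.nU D hD j)⁻¹, conj_mem_of_mem_normalizer _ hNj h0, by group⟩
        · left
          rw [e]
          have e2 : Cfsg.Agent.Lib.Helper36.nU (F := F) D hD j *
              (h' * Cfsg.Agent.Lib.Helper36.nU D hD j)
              = (Cfsg.Agent.Lib.Helper36.nU D hD j * h' *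
                  (Cfsg.Agent.Lib.Helper36.nU D hD j)⁻¹) *
                (Cfsg.Agent.Lib.Helper36.nU D hD j * Cfsg.Agent.Lib.Helper36.nU D hD j) := by
            group
          rw [e2]
          exact Subgroup.mul_mem _ (conj_mem_of_mem_normalizer _ hNj hh')
            (Cfsg.Agent.Lib.Helper36.nU_sq_mem D hD j)
    rcases key v hv with h0 | ⟨h', hh', e⟩
    · exfalso; apply hxB
      exact Subgroup.mul_mem _ (Subgroup.mul_mem _ hy (hHB (Subgroup.mul_mem _ hh h0))) hy'
    · refine ⟨y * (h * h'), Subgroup.mul_mem _ hy (hHB (Subgroup.mul_mem _ hh hh')), y', hy', ?_⟩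
      rw [e]; group

end Cfsg.Agent.Lib.Helper1.Stu
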