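import Cfsg.Agent.Lib.Helper36.Stu.Defs
import Cfsg.Agent.Lib.Helper79.CharSum
import Cfsg.Agent.Lib.Helper80.Schur
import Cfsg.Agent.Lib.Helper3.CharValues

set_option autoImplicit false

/-!
# STU (S2318), package CMP (helper1)
-/

universe u

namespace Cfsg.Agent.Lib.Helper1.Stu

open Cfsg.Agent.Lib.Helper36.Stu

open scoped ComplexConjugate

/-- generalised orthogonality with one parameter -/
theorem irr_sum_shift_mul_inv {G : Type u} [Group G] [Fintype G] {χ : G → ℂ}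
    (hχ : Cfsg.IsIrrCharacter G χ) (h : G) :
    ∑ g : G, χ (g * h) * χ g⁻¹ = (Nat.card G : ℂ) / χ 1 * χ h := by
  obtain ⟨n, ρ, hρ, rfl⟩ := hχ
  have := hρ
  have hS := Cfsg.Agent.Lib.Helper80.sum_char_inv_smul ρ
  have h2 := congrArg (fun T => LinearMap.trace ℂ (Fin n → ℂ) (T * ρ h)) hS
  simp only [Finset.sum_mul, map_sum, smul_mul_assoc, map_smul, smul_eq_mul, one_mul] at h2
  have h3 : ∀ g : G, ρ.character (g * h) * ρ.character g⁻¹
      = ρ.character g⁻¹ * LinearMap.trace ℂ (Fin n → ℂ) (ρ g * ρ h) := by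
    intro g
    rw [mul_comm]
    congr 1
    simp [Representation.character, map_mul]
  rw [Finset.sum_congr rfl (fun g _ => h3 g), h2, Representation.char_one]
  rfl

/-- `∑_g sph χ g * conj (sph χ g) = |G| / χ 1` -/
theorem sum_sph_mul_conj {G : Type u} [Group G] [Fintype G] (U : Subgroup G) (χ : G → ℂ)
    (hχ : Cfsg.IsIrrCharacter G χ) (hU : ∑ᶠ u : U, χ (u : G) = (Nat.card U : ℂ)) :
    ∑ g : G, sph U χ g * conj (sph U χ g) = (Nat.card G : ℂ) / χ 1 := by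
  classical
  have : Fintype U := Fintype.ofFinite U
  have hUne : (Nat.card U : ℂ) ≠ 0 := by exact_mod_cast (Nat.card_pos (α := U)).ne'
  rw [finsum_eq_sum_of_fintype] at hU
  have hchar : Cfsg.IsCharacter G χ := by
    obtain ⟨n, ρ, _, h⟩ := hχ; exact ⟨n, ρ, h⟩
  have hconj : ∀ x : G, conj (χ x) = χ x⁻¹ := fun x =>
    (Cfsg.Agent.Lib.Helper3.isCharacter_inv hchar x).symm
  have hexp : ∀ g : G, sph U χ g * conj (sph U χ g)
      = ((Nat.card U : ℂ)⁻¹) ^ 2 *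
        ∑ u : U, ∑ u' : U, χ (g * (u : G)) * χ ((g * (u' : G))⁻¹) := by
    intro g
    simp only [sph, finsum_eq_sum_of_fintype, map_mul, map_inv₀, map_sum, Complex.conj_natCast,
      hconj]
    rw [← Finset.sum_mul_sum]; ring
  rw [Finset.sum_congr rfl (fun g _ => hexp g), ← Finset.mul_sum]
  have hswap : ∑ g : G, ∑ u : U, ∑ u' : U, χ (g * (u : G)) * χ ((g * (u' : G))⁻¹)
      = ∑ u : U, ∑ u' : U, ∑ g : G, χ (g * (u : G)) * χ ((g * (u' : G))⁻¹) := by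
    rw [Finset.sum_comm]; apply Finset.sum_congr rfl; intro u _; rw [Finset.sum_comm]
  have hinner : ∀ u u' : U, ∑ g : G, χ (g * (u : G)) * χ ((g * (u' : G))⁻¹)
      = (Nat.card G : ℂ) / χ 1 * χ (((u'⁻¹ * u : U) : G)) := by
    intro u u'
    rw [← irr_sum_shift_mul_inv hχ, ← Equiv.sum_comp (Equiv.mulRight ((u' : G)⁻¹))]
    apply Finset.sum_congr rfl
    intro g _
    simp only [Equiv.coe_mulRight, Subgroup.coe_mul, Subgroup.coe_inv]
    congr 2 <;> group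
  have hUU : ∑ u : U, ∑ u' : U, χ (((u'⁻¹ * u : U) : G))
      = (Nat.card U : ℂ) * (Nat.card U : ℂ) := by
    rw [Finset.sum_comm]
    have h1 : ∀ u' : U, ∑ u : U, χ (((u'⁻¹ * u : U) : G)) = (Nat.card U : ℂ) := by
      intro u'
      rw [← hU]
      exact Equiv.sum_comp (Equiv.mulLeft u'⁻¹) (fun v : U => χ (v : G))
    rw [Finset.sum_congr rfl (fun u' _ => h1 u'), Finset.sum_const, Finset.card_univ,
      nsmul_eq_mul, Nat.card_eq_fintype_card]
  rw [hswap]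
  have h3 : ∑ u : U, ∑ u' : U, ∑ g : G, χ (g * (u : G)) * χ ((g * (u' : G))⁻¹)
      = (Nat.card G : ℂ) / χ 1 * ((Nat.card U : ℂ) * (Nat.card U : ℂ)) := by
    rw [← hUU, Finset.mul_sum]
    apply Finset.sum_congr rfl; intro u _
    rw [Finset.mul_sum]
    apply Finset.sum_congr rfl; intro u' _
    exact hinner u u'
  rw [h3]
  field_simp

theorem pkgCmp : PkgCmp.{u} := by
  intro G _ _ U χ₁ χ₂ h1 h2 hU1 hU2 hdeg hle g
  classical
  have : Fintype G := Fintype.ofFinite G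
  have e1 := sum_sph_mul_conj U χ₁ h1 hU1
  have e2 := sum_sph_mul_conj U χ₂ h2 hU2
  have hr : ∀ (χ : G → ℂ), ∑ x : G, sph U χ x * conj (sph U χ x)
      = ((∑ x : G, ‖sph U χ x‖ ^ 2 : ℝ) : ℂ) := by
    intro χ
    rw [Complex.ofReal_sum]
    apply Finset.sum_congr rfl
    intro x _
    rw [Complex.mul_conj, Complex.normSq_eq_norm_sq]
  have hsum : ∑ x : G, ‖sph U χ₁ x‖ ^ 2 = ∑ x : G, ‖sph U χ₂ x‖ ^ 2 := by
    have h3 : ((∑ x : G, ‖sph U χ₁ x‖ ^ 2 : ℝ) : ℂ) = ((∑ x : G, ‖sph U χ₂ x‖ ^ 2 : ℝ) : ℂ) := by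
      rw [← hr, ← hr, e1, e2, hdeg]
    exact_mod_cast h3
  have hle2 : ∀ x ∈ (Finset.univ : Finset G), ‖sph U χ₂ x‖ ^ 2 ≤ ‖sph U χ₁ x‖ ^ 2 := by
    intro x _
    exact pow_le_pow_left₀ (norm_nonneg _) (hle x) 2
  have heq := (Finset.sum_eq_sum_iff_of_le hle2).1 hsum.symm g (Finset.mem_univ g)
  exact (pow_left_inj₀ (norm_nonneg _) (norm_nonneg _) two_ne_zero).1 heq.symm

end Cfsg.Agent.Lib.Helper1.Stu
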