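import Cfsg.Agent.Lib.Helper36.Stu.Defs
import Cfsg.Agent.Lib.Helper79.CharSum

set_option autoImplicit false

/-!
# STU (S2318), package UNIQ (helper1)
-/

universe u

namespace Cfsg.Agent.Lib.Helper1.Stu

open Cfsg.Agent.Lib.Helper36.Stu

/-- the class average of the spherical function recovers the character -/
theorem sum_conj_sph {G : Type u} [Group G] [Fintype G] (U : Subgroup G) (χ : G → ℂ)
    (hχ : Cfsg.IsIrrCharacter G χ) (hU : ∑ᶠ u : U, χ (u : G) = (Nat.card U : ℂ)) (g : G) :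
    ∑ x : G, sph U χ (x * g * x⁻¹) = (Nat.card G : ℂ) * χ g / χ 1 := by
  classical
  have : Fintype U := Fintype.ofFinite U
  have hUne : (Nat.card U : ℂ) ≠ 0 := by exact_mod_cast (Nat.card_pos (α := U)).ne'
  rw [finsum_eq_sum_of_fintype] at hU
  simp only [sph, finsum_eq_sum_of_fintype]
  rw [← Finset.mul_sum, Finset.sum_comm]
  have h1 : ∀ u : U, ∑ x : G, χ (x * g * x⁻¹ * (u : G))
      = (Nat.card G : ℂ) * χ g * χ (u : G) / χ 1 :=
    fun u => Cfsg.Agent.Lib.Helper79.irr_sum_conj_mul hχ g u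
  rw [Finset.sum_congr rfl (fun u _ => h1 u)]
  have h2 : ∑ u : U, (Nat.card G : ℂ) * χ g * χ (u : G) / χ 1
      = (Nat.card G : ℂ) * χ g / χ 1 * ∑ u : U, χ (u : G) := by
    rw [Finset.mul_sum]; apply Finset.sum_congr rfl; intro u _; ring
  rw [h2, hU]
  field_simp

theorem pkgUniq : PkgUniq.{u} := by
  intro G _ _ U χ₁ χ₂ h1 h2 hU1 hU2 hdeg hsph
  classical
  have : Fintype G := Fintype.ofFinite G
  funext g
  have e1 := sum_conj_sph U χ₁ h1 hU1 g
  have e2 := sum_conj_sph U χ₂ h2 hU2 g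
  have e3 : ∑ x : G, sph U χ₁ (x * g * x⁻¹) = ∑ x : G, sph U χ₂ (x * g * x⁻¹) :=
    Finset.sum_congr rfl (fun x _ => hsph _)
  rw [e1, e2, ← hdeg] at e3
  have hne : χ₁ 1 ≠ 0 := Cfsg.Agent.Lib.Helper79.irr_one_ne_zero h1
  have hG : (Nat.card G : ℂ) ≠ 0 := by exact_mod_cast (Nat.card_pos (α := G)).ne'
  have e4 : (Nat.card G : ℂ) * χ₁ g = (Nat.card G : ℂ) * χ₂ g := by
    have := congrArg (fun z => z * χ₁ 1) e3
    simp only [div_mul_cancel₀ _ hne] at this
    exact this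
  exact mul_left_cancel₀ hG e4

end Cfsg.Agent.Lib.Helper1.Stu
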